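import Cfsg.Agent.Lib.Helper21.Uni.Defs

set_option autoImplicit false

namespace Cfsg.Agent.Lib.Helper89.Uni

open Matrix Module Cfsg.Agent.Lib.Helper67.Elus Cfsg.Agent.Lib.Helper21.Uni

variable {F : Type*} [Field F]
variable {I J K L : Type} [Fintype I] [Fintype J] [Fintype K] [Fintype L]
  [DecidableEq I] [DecidableEq J] [DecidableEq K] [DecidableEq L]

/-- J1 -/
theorem jtype_conj {V V' : Type*} [AddCommGroup V] [Module F V] [AddCommGroup V'] [Module F V']
    (e : V ≃ₗ[F] V') {N : Module.End F V} {μ : Multiset ℕ} (h : JType N μ) :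
    JType ((e : V →ₗ[F] V') ∘ₗ N ∘ₗ (e.symm : V' →ₗ[F] V)) μ := by
  obtain ⟨ι, hι, d, b, hμ, hb⟩ := h
  refine ⟨ι, hι, d, b.map e, hμ, ?_⟩
  intro k j
  have h1 := hb k j
  simp only [LinearMap.comp_apply, LinearEquiv.coe_coe, Module.Basis.map_apply,
    LinearEquiv.symm_apply_apply]
  rw [h1]
  split_ifs with h2
  · rfl
  · exact map_zero e

end Cfsg.Agent.Lib.Helper89.Uni
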