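import Cfsg.Agent.Lib.Helper21.Uni.Defs
import Cfsg.Agent.Lib.Helper89.Uni.J1

set_option autoImplicit false

namespace Cfsg.Agent.Lib.Helper89.Uni

open Matrix Module Cfsg.Agent.Lib.Helper67.Elus Cfsg.Agent.Lib.Helper21.Uni

variable {F : Type*} [Field F]
variable {I J K L : Type} [Fintype I] [Fintype J] [Fintype K] [Fintype L]
  [DecidableEq I] [DecidableEq J] [DecidableEq K] [DecidableEq L]

/-- J4 -/
theorem jtype_matrix_conj {N : Matrix I I F} {μ : Multiset ℕ} (h : JType (Matrix.toLin' N) μ)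
    (P : Matrix I J F) (P' : Matrix J I F) (h1 : P * P' = 1) (h2 : P' * P = 1) :
    JType (Matrix.toLin' (P' * N * P)) μ := by
  let e : (I → F) ≃ₗ[F] (J → F) := LinearEquiv.ofLinearMap (Matrix.toLin' P') (Matrix.toLin' P)
    (by rw [← Matrix.toLin'_mul, h2, Matrix.toLin'_one])
    (by rw [← Matrix.toLin'_mul, h1, Matrix.toLin'_one])
  have h3 := jtype_conj e h
  have h4 : Matrix.toLin' (P' * N * P)
      = (e : (I → F) →ₗ[F] (J → F)) ∘ₗ Matrix.toLin' N ∘ₗ (e.symm : (J → F) →ₗ[F] (I → F)) := by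
    rw [Matrix.toLin'_mul, Matrix.toLin'_mul, LinearMap.comp_assoc]
    rfl
  rw [h4]
  exact h3

end Cfsg.Agent.Lib.Helper89.Uni
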