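import Cfsg.Agent.Lib.Helper21.Uni.Defs

set_option autoImplicit false

namespace Cfsg.Agent.Lib.Helper89.Uni

open Matrix Module Cfsg.Agent.Lib.Helper67.Elus Cfsg.Agent.Lib.Helper21.Uni

variable {F : Type*} [Field F]
variable {I J K L : Type} [Fintype I] [Fintype J] [Fintype K] [Fintype L]
  [DecidableEq I] [DecidableEq J] [DecidableEq K] [DecidableEq L]

/-- J2 (adapted from helper67's `jtype_of_isCompl`) -/
theorem jtype_fromBlocks {N₁ : Matrix I I F} {N₂ : Matrix J J F} {μ₁ μ₂ : Multiset ℕ}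
    (h₁ : JType (Matrix.toLin' N₁) μ₁) (h₂ : JType (Matrix.toLin' N₂) μ₂) :
    JType (Matrix.toLin' (fromBlocks N₁ 0 0 N₂)) (μ₁ + μ₂) := by
  obtain ⟨ι₁, _, d₁, b₁, rfl, hc₁⟩ := h₁
  obtain ⟨ι₂, _, d₂, b₂, rfl, hc₂⟩ := h₂
  let eqv : (Σ k : ι₁ ⊕ ι₂, Fin (Sum.elim d₁ d₂ k)) ≃ (Σ k, Fin (d₁ k)) ⊕ (Σ k, Fin (d₂ k)) :=
    Equiv.sumSigmaDistrib (fun k : ι₁ ⊕ ι₂ => Fin (Sum.elim d₁ d₂ k))
  let E : ((I → F) × (J → F)) ≃ₗ[F] (I ⊕ J → F) := (LinearEquiv.sumArrowLequivProdArrow I J F F).symm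
  have hE : ∀ u w, E (u, w) = Sum.elim u w := fun u w => rfl
  let B : Basis (Σ k : ι₁ ⊕ ι₂, Fin (Sum.elim d₁ d₂ k)) F (I ⊕ J → F) :=
    ((b₁.prod b₂).map E).reindex eqv.symm
  have hB1 : ∀ (k : ι₁) (j : Fin (d₁ k)), B ⟨Sum.inl k, j⟩ = Sum.elim (b₁ ⟨k, j⟩) (0 : J → F) := by
    intro k j
    show ((b₁.prod b₂).map E).reindex eqv.symm ⟨Sum.inl k, j⟩ = _
    rw [Basis.reindex_apply, Basis.map_apply]
    have : eqv.symm.symm ⟨Sum.inl k, j⟩ = Sum.inl ⟨k, j⟩ := rfl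
    rw [this, ← hE]
    congr 1
    apply Prod.ext
    · rw [Basis.prod_apply_inl_fst]
    · rw [Basis.prod_apply_inl_snd]
  have hB2 : ∀ (k : ι₂) (j : Fin (d₂ k)), B ⟨Sum.inr k, j⟩ = Sum.elim (0 : I → F) (b₂ ⟨k, j⟩) := by
    intro k j
    show ((b₁.prod b₂).map E).reindex eqv.symm ⟨Sum.inr k, j⟩ = _
    rw [Basis.reindex_apply, Basis.map_apply]
    have : eqv.symm.symm ⟨Sum.inr k, j⟩ = Sum.inr ⟨k, j⟩ := rfl
    rw [this, ← hE]
    congr 1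
    apply Prod.ext
    · rw [Basis.prod_apply_inr_fst]
    · rw [Basis.prod_apply_inr_snd]
  have hN : ∀ (u : I → F) (w : J → F), Matrix.toLin' (fromBlocks N₁ 0 0 N₂) (Sum.elim u w)
      = Sum.elim (Matrix.toLin' N₁ u) (Matrix.toLin' N₂ w) := by
    intro u w
    rw [Matrix.toLin'_apply, Matrix.fromBlocks_mulVec]
    simp [Matrix.toLin'_apply]
  refine ⟨ι₁ ⊕ ι₂, inferInstance, Sum.elim d₁ d₂, B, ?_, ?_⟩
  · rw [← Finset.univ_disjSum_univ, Finset.val_disjSum, Multiset.disjSum, Multiset.map_add,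
      Multiset.map_map, Multiset.map_map]
    rfl
  · intro k j
    rcases k with k | k
    · change Fin (d₁ k) at j
      rw [show B ⟨Sum.inl k, j⟩ = Sum.elim (b₁ ⟨k, j⟩) (0 : J → F) from hB1 k j, hN, hc₁ k j, map_zero]
      by_cases hj : (j : ℕ) + 1 < d₁ k
      · rw [dif_pos hj, dif_pos (show (j : ℕ) + 1 < Sum.elim d₁ d₂ (Sum.inl k) from hj)]
        exact (hB1 k ⟨(j : ℕ) + 1, hj⟩).symm
      · rw [dif_neg hj, dif_neg (show ¬ (j : ℕ) + 1 < Sum.elim d₁ d₂ (Sum.inl k) from hj)]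
        funext i
        rcases i with i | i <;> rfl
    · change Fin (d₂ k) at j
      rw [show B ⟨Sum.inr k, j⟩ = Sum.elim (0 : I → F) (b₂ ⟨k, j⟩) from hB2 k j, hN, hc₂ k j, map_zero]
      by_cases hj : (j : ℕ) + 1 < d₂ k
      · rw [dif_pos hj, dif_pos (show (j : ℕ) + 1 < Sum.elim d₁ d₂ (Sum.inr k) from hj)]
        exact (hB2 k ⟨(j : ℕ) + 1, hj⟩).symm
      · rw [dif_neg hj, dif_neg (show ¬ (j : ℕ) + 1 < Sum.elim d₁ d₂ (Sum.inr k) from hj)]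
        funext i
        rcases i with i | i <;> rfl

end Cfsg.Agent.Lib.Helper89.Uni
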