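import Cfsg.Agent.Lib.Helper21.Uni.Defs

set_option autoImplicit false

namespace Cfsg.Agent.Lib.Helper89.Uni

open Matrix Module Cfsg.Agent.Lib.Helper67.Elus Cfsg.Agent.Lib.Helper21.Uni

variable {F : Type*} [Field F]
variable {I J K L : Type} [Fintype I] [Fintype J] [Fintype K] [Fintype L]
  [DecidableEq I] [DecidableEq J] [DecidableEq K] [DecidableEq L]

/-- J3 -/
theorem jtype_shift (e : ℕ) : JType (Matrix.toLin' (shift F e)) {e} := by
  let eqv : Fin e ≃ (Σ _ : Unit, Fin e) := (Equiv.uniqueSigma (fun _ : Unit => Fin e)).symm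
  refine ⟨Unit, inferInstance, fun _ => e, (Pi.basisFun F (Fin e)).reindex eqv, ?_, ?_⟩
  · simp
  · intro k j
    have h1 : ∀ j' : Fin e, ((Pi.basisFun F (Fin e)).reindex eqv) ⟨k, j'⟩ = Pi.single j' 1 := by
      intro j'
      simp only [Module.Basis.reindex_apply, Pi.basisFun_apply, eqv, Equiv.symm_symm]
      rfl
    rw [h1, Matrix.toLin'_apply, Matrix.mulVec_single_one]
    split_ifs with h2
    · rw [h1]
      funext i
      simp only [Matrix.col_apply, shift, Pi.single_apply]
      congr 1
      rw [Fin.ext_iff]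
      simp [eq_comm]
    · funext i
      simp only [Matrix.col_apply, shift, Pi.zero_apply]
      rw [if_neg]
      have := i.2
      have h3 : ¬ ((j : ℕ) + 1 < e) := h2
      omega

end Cfsg.Agent.Lib.Helper89.Uni
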