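import Cfsg.Agent.Lib.Helper21.Uni.Defs
import Cfsg.Agent.Lib.Helper89.Uni.J4

set_option autoImplicit false

namespace Cfsg.Agent.Lib.Helper89.Uni

open Matrix Module Cfsg.Agent.Lib.Helper67.Elus Cfsg.Agent.Lib.Helper21.Uni

variable {F : Type*} [Field F]
variable {I J K L : Type} [Fintype I] [Fintype J] [Fintype K] [Fintype L]
  [DecidableEq I] [DecidableEq J] [DecidableEq K] [DecidableEq L]

/-- G3 -/
theorem realM_congr {G : Matrix I I F} {G' : Matrix J J F} {μ : Multiset ℕ} (h : RealM G μ)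
    (hc : Cg G G') : RealM G' μ := by
  obtain ⟨N, hJ, hs⟩ := h
  obtain ⟨P, P', h1, h2, rfl⟩ := hc
  refine ⟨P' * N * P, jtype_matrix_conj hJ P P' h1 h2, ?_⟩
  have h3 : P'ᵀ * Pᵀ = 1 := by rw [← Matrix.transpose_mul, h1, Matrix.transpose_one]
  calc (P' * N * P)ᵀ * (Pᵀ * G * P) = Pᵀ * Nᵀ * (P'ᵀ * Pᵀ) * G * P := by
        simp only [Matrix.transpose_mul, Matrix.mul_assoc]
    _ = Pᵀ * (Nᵀ * G) * P := by rw [h3, Matrix.mul_one]; simp only [Matrix.mul_assoc]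
    _ = -(Pᵀ * G * (P * P') * N * P) := by
        rw [hs, h1, Matrix.mul_one]; simp only [Matrix.mul_neg, Matrix.neg_mul, Matrix.mul_assoc]
    _ = -(Pᵀ * G * P * (P' * N * P)) := by simp only [Matrix.mul_assoc]

end Cfsg.Agent.Lib.Helper89.Uni
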