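import Cfsg.Agent.Lib.Helper21.Uni.Defs
import Cfsg.Agent.Lib.Helper89.Uni.J2

set_option autoImplicit false

namespace Cfsg.Agent.Lib.Helper89.Uni

open Matrix Module Cfsg.Agent.Lib.Helper67.Elus Cfsg.Agent.Lib.Helper21.Uni

variable {F : Type*} [Field F]
variable {I J K L : Type} [Fintype I] [Fintype J] [Fintype K] [Fintype L]
  [DecidableEq I] [DecidableEq J] [DecidableEq K] [DecidableEq L]

/-- G4 -/
theorem realM_blocks {G₁ : Matrix I I F} {G₂ : Matrix J J F} {μ₁ μ₂ : Multiset ℕ} (h₁ : RealM G₁ μ₁)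
    (h₂ : RealM G₂ μ₂) : RealM (bs G₁ G₂) (μ₁ + μ₂) := by
  obtain ⟨N₁, hJ₁, hs₁⟩ := h₁
  obtain ⟨N₂, hJ₂, hs₂⟩ := h₂
  refine ⟨fromBlocks N₁ 0 0 N₂, jtype_fromBlocks hJ₁ hJ₂, ?_⟩
  rw [Matrix.fromBlocks_transpose, Matrix.fromBlocks_multiply, Matrix.fromBlocks_multiply,
    Matrix.fromBlocks_neg]
  simp [hs₁, hs₂]

end Cfsg.Agent.Lib.Helper89.Uni
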